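-- Team project OELP (S5988): plus-type orthogonal groups and elliptic m-spaces, ALL q
-- (characteristic two included).  Interface file (helper44): definitions and package statements.
-- Built on helper23's OHYP interface (Inv, Nd, Plus, Perp, fixSp, movSp, ordI, cc, Std).
import Mathlib
import Cfsg.Prelude.Def_GeometricClasses
import Cfsg.Prelude.Def_Classical
import Cfsg.Agent.Lib.Helper23.OHyp.Defs

set_option autoImplicit false
open scoped MatrixGroups
open Matrix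

namespace Cfsg.Agent.Lib.Helper44.OElp

open Cfsg.Agent.Lib.Helper23.OHyp

universe u

section defs

variable {F : Type u} [Field F] {ι : Type} [Fintype ι] [DecidableEq ι]

/-- The elliptic `m`-spaces of `Q`: nondegenerate `m`-spaces which are not of plus type. -/
abbrev EllSp (Q : (ι → F) → F) (m : ℕ) : Type u :=
  {W : Submodule F (ι → F) // Module.finrank F ↥W = m ∧
    Cfsg.Geo.IsNondegenerateOn (QuadraticMap.polar Q) W ∧ ¬ Cfsg.Geo.IsPlusTypeOn Q W}

/-- Every element of `Ω(Q)` that is not scalar and has scalar `r`-th power fixes an elliptic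
`m`-space (the left-hand side of S5988). -/
def AllFix (Q : (ι → F) → F) (m r : ℕ) : Prop :=
  ∀ x : GL ι F, x ∈ Cfsg.Geo.omegaGL Q →
    (∃ z : F, ((x ^ r : GL ι F) : Matrix ι ι F) = z • (1 : Matrix ι ι F)) →
    (∀ z : F, (x : Matrix ι ι F) ≠ z • (1 : Matrix ι ι F)) →
    ∃ W : Submodule F (ι → F), (Module.finrank F ↥W = m ∧
      Cfsg.Geo.IsNondegenerateOn (QuadraticMap.polar Q) W ∧ ¬ Cfsg.Geo.IsPlusTypeOn Q W) ∧
      W.map (Matrix.toLin' (x : Matrix ι ι F)) ≤ W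

/-- Every isometry of order `r` fixes an elliptic `m`-space. -/
def AllFixIso (Q : (ι → F) → F) (m r : ℕ) : Prop :=
  ∀ x : GL ι F, x ∈ Cfsg.isometryGroup F Q → orderOf x = r →
    ∃ W : Submodule F (ι → F), (Module.finrank F ↥W = m ∧
      Cfsg.Geo.IsNondegenerateOn (QuadraticMap.polar Q) W ∧ ¬ Cfsg.Geo.IsPlusTypeOn Q W) ∧
      W.map (Matrix.toLin' (x : Matrix ι ι F)) ≤ W

end defs

/-- Numerical condition: an invariant elliptic space `W = W_C ⊥ W_N` with `dim W_C = e`,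
`dim W_N = c j`, where `D = dim fixSp x`, `c J = dim movSp x`. -/
def Good (i e D J j : ℕ) : Prop :=
  (0 < e ∧ e < D) ∨ (e = 0 ∧ Even i ∧ Odd j) ∨ (e = D ∧ Even i ∧ Odd (J + j))

/-- The right-hand side of S5988 for `r` odd, `r ≠ p`. -/
def RhsOdd (d m i c : ℕ) : Prop :=
  (Odd i ∧ c ≤ m ∧ 0 < m % c ∧ m % c < (2 * d) % c) ∨
  (Even i ∧
    (((2 * d) % c = 0 ∧ (Odd ((2 * d) / i) ∨ (m % c = 0 ∧ Odd (m / i)))) ∨
     (i ≤ m ∧ ((0 < m % c ∧ m % c < (2 * d) % c) ∨
               (0 < m % c ∧ m % c = (2 * d) % c ∧ Odd ((2 * d + m - 2 * ((2 * d) % c)) / i)) ∨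
               (m % c = 0 ∧ 0 < (2 * d) % c ∧ Odd (m / i))))))

/-- Standing hypotheses WITHOUT `2 ≠ 0`: `x` is an isometry of the nondegenerate quadratic form
`Q` over a finite field (any characteristic), `x ^ r = 1`, `r` an odd prime different from the
characteristic. -/
structure StdE {F : Type u} [Field F] [Fintype F] {ι : Type} [Fintype ι] [DecidableEq ι]
    (Q : (ι → F) → F) (r : ℕ) (x : Matrix ι ι F) : Prop where
  nondeg : Cfsg.Geo.IsNondegenerateQuadraticForm Q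
  prime : r.Prime
  ne_two : r ≠ 2
  ndvd : ¬ r ∣ Fintype.card F
  ne : (r : F) ≠ 0
  pow : x ^ r = 1
  isom : ∀ v, Q (x *ᵥ v) = Q v

theorem StdE.toStd {F : Type u} [Field F] [Fintype F] {ι : Type} [Fintype ι] [DecidableEq ι]
    {Q : (ι → F) → F} {r : ℕ} {x : Matrix ι ι F} (h : StdE Q r x) (h2 : (2 : F) ≠ 0) :
    Std Q r x :=
  ⟨h.nondeg, h2, h.prime, h.ne_two, h.ndvd, h.ne, h.pow, h.isom⟩

theorem StdE.ofStd {F : Type u} [Field F] [Fintype F] {ι : Type} [Fintype ι] [DecidableEq ι]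
    {Q : (ι → F) → F} {r : ℕ} {x : Matrix ι ι F} (h : Std Q r x) : StdE Q r x :=
  ⟨h.nondeg, h.prime, h.ne_two, h.ndvd, h.ne, h.pow, h.isom⟩

/-! ### Level 0: the three cases of the theorem -/

/-- [RP] `r = p` (ANY `p`, also `p = 2`): an element of `Ω⁺` of order `p` all of whose invariant
`m`-spaces (`m` even) are of plus type. -/
def PkgRP : Prop :=
  ∀ (F : Type u) [Field F] [Fintype F] (p : ℕ) [Fact p.Prime] [CharP F p] (d m : ℕ),
    4 ≤ d → Even m →
    ∃ x : GL (Fin d ⊕ Fin d) F, x ∈ Cfsg.Geo.omegaGL (Cfsg.quadFormPlus d F) ∧ x ^ p = 1 ∧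
      (∀ z : F, (x : Matrix (Fin d ⊕ Fin d) (Fin d ⊕ Fin d) F) ≠
        z • (1 : Matrix (Fin d ⊕ Fin d) (Fin d ⊕ Fin d) F)) ∧
      ∀ W : Submodule F (Fin d ⊕ Fin d → F), Module.finrank F ↥W = m →
        W.map (Matrix.toLin' (x : Matrix (Fin d ⊕ Fin d) (Fin d ⊕ Fin d) F)) ≤ W →
        Cfsg.Geo.IsPlusTypeOn (Cfsg.quadFormPlus d F) W

/-- [R2] `r = 2`, `q` odd. -/
def PkgR2 : Prop :=
  ∀ (F : Type u) [Field F] [Fintype F], (2 : F) ≠ 0 →
    ∀ (d m : ℕ), 4 ≤ d → 2 ≤ m → Even m → m < d →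
      (AllFix (Cfsg.quadFormPlus d F) m 2 ↔
        ((Even d ∧ Fintype.card F % 4 = 3 ∧ m % 4 = 2) ∨ (Odd d ∧ Fintype.card F % 8 ≠ 1)))

/-- [RODD] `r` odd, `r ≠ p` (any `q`). -/
def PkgROdd : Prop :=
  ∀ (F : Type u) [Field F] [Fintype F] (d m : ℕ), 4 ≤ d → 2 ≤ m → Even m → m < d →
    ∀ (r : ℕ), r.Prime → r ≠ 2 → ¬ r ∣ Fintype.card F →
      r ∣ Nat.card (EllSp (Cfsg.quadFormPlus d F) m) →
      (AllFix (Cfsg.quadFormPlus d F) m r ↔
        RhsOdd d m (ordI (Fintype.card F) r) (cc (Fintype.card F) r))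

/-! ### `r = 2` -/

/-- [NEG1] `-1` a square: an isometry with square `-1` has only plus-type invariant
nondegenerate subspaces. -/
def PkgNeg1 : Prop :=
  ∀ (F : Type u) [Field F] (ι : Type) [Fintype ι] [DecidableEq ι]
    (Q : (ι → F) → F), Cfsg.Geo.IsNondegenerateQuadraticForm Q → (2 : F) ≠ 0 →
    ∀ s : F, s * s = -1 →
    ∀ x : Matrix ι ι F, (∀ v, Q (x *ᵥ v) = Q v) → x * x = -1 →
    ∀ W : Submodule F (ι → F), Inv x W → Nd Q W → Plus Q W

/-- [NEG3] `-1` a non-square: for an isometry with square `-1` the type of an invariant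
nondegenerate subspace is given by its dimension mod 4, and there are invariant nondegenerate
subspaces of every even dimension. -/
def PkgNeg3 : Prop :=
  ∀ (F : Type u) [Field F] [Fintype F] (ι : Type) [Fintype ι] [DecidableEq ι]
    (Q : (ι → F) → F), Cfsg.Geo.IsNondegenerateQuadraticForm Q → (2 : F) ≠ 0 →
    ¬ IsSquare (-1 : F) →
    ∀ x : Matrix ι ι F, (∀ v, Q (x *ᵥ v) = Q v) → x * x = -1 →
    ∀ W : Submodule F (ι → F), Inv x W → Nd Q W →
      (Plus Q W ↔ 4 ∣ Module.finrank F W) ∧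
      ∀ m : ℕ, Even m → m ≤ Module.finrank F W →
        ∃ W' : Submodule F (ι → F), W' ≤ W ∧ Inv x W' ∧ Nd Q W' ∧ Module.finrank F W' = m

/-! ### Generic packages in ANY characteristic (for `2 ≠ 0` they are the landed OHYP packages) -/

/-- [PLUSQE] the form `Σ xᵢ yᵢ` is nondegenerate of plus type, any characteristic. -/
def PkgPlusQE : Prop :=
  ∀ (F : Type u) [Field F] (d : ℕ),
    Cfsg.Geo.IsNondegenerateQuadraticForm (Cfsg.quadFormPlus d F) ∧
    Plus (Cfsg.quadFormPlus d F) ⊤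

/-- [ODDOMEGAE] isometries of odd order lie in `Ω`, any characteristic. -/
def PkgOddOmegaE : Prop :=
  ∀ (F : Type u) [Field F] [Fintype F] (ι : Type) [Fintype ι] [DecidableEq ι]
    (Q : (ι → F) → F), Cfsg.Geo.IsNondegenerateQuadraticForm Q →
    ((2 : F) = 0 → (Fintype.card F ≠ 2 ∨ Fintype.card ι ≠ 4)) →
    ∀ x : GL ι F, x ∈ Cfsg.isometryGroup F Q → Odd (orderOf x) → x ∈ Cfsg.Geo.omegaGL Q

/-- [SPLITE] = OHYP [SPLIT] without `2 ≠ 0`. -/
def PkgSplitE : Prop :=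
  ∀ (F : Type u) [Field F] [Fintype F] (ι : Type) [Fintype ι] [DecidableEq ι]
    (Q : (ι → F) → F) (r : ℕ) (x : Matrix ι ι F), StdE Q r x →
    Nd Q (fixSp x) ∧ Nd Q (movSp x) ∧ Perp Q (fixSp x) (movSp x) ∧ IsCompl (fixSp x) (movSp x) ∧
    Inv x (movSp x) ∧
    ∀ W : Submodule F (ι → F), Inv x W → Nd Q W →
      Nd Q (W ⊓ fixSp x) ∧ Nd Q (W ⊓ movSp x) ∧ Inv x (W ⊓ movSp x) ∧
      (W ⊓ fixSp x) ⊔ (W ⊓ movSp x) = W ∧
      Module.finrank F W = Module.finrank F ↥(W ⊓ fixSp x) + Module.finrank F ↥(W ⊓ movSp x)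

/-- [SUME] = OHYP [SUM] without `2 ≠ 0`. -/
def PkgSumE : Prop :=
  ∀ (F : Type u) [Field F] [Fintype F] (ι : Type) [Fintype ι] [DecidableEq ι]
    (Q : (ι → F) → F), Cfsg.Geo.IsNondegenerateQuadraticForm Q →
    ∀ W₁ W₂ : Submodule F (ι → F), Nd Q W₁ → Nd Q W₂ → Perp Q W₁ W₂ →
      Nd Q (W₁ ⊔ W₂) ∧
      Module.finrank F ↥(W₁ ⊔ W₂) = Module.finrank F W₁ + Module.finrank F W₂ ∧
      (Even (Module.finrank F W₁) → Even (Module.finrank F W₂) →
        (Plus Q (W₁ ⊔ W₂) ↔ (Plus Q W₁ ↔ Plus Q W₂)))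

/-- [GEOME] = OHYP [GEOM] without `2 ≠ 0`. -/
def PkgGeomE : Prop :=
  ∀ (F : Type u) [Field F] [Fintype F] (ι : Type) [Fintype ι] [DecidableEq ι]
    (Q : (ι → F) → F), Cfsg.Geo.IsNondegenerateQuadraticForm Q →
    ∀ C : Submodule F (ι → F), Nd Q C →
    ∀ (e : ℕ) (ε : Prop), Even e → e + 1 ≤ Module.finrank F C → (e = 0 → ε) →
      ∃ W₀ : Submodule F (ι → F), W₀ ≤ C ∧ Nd Q W₀ ∧ Module.finrank F W₀ = e ∧ (Plus Q W₀ ↔ ε)

/-- [BLKE] = OHYP [BLK] without `2 ≠ 0`. -/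
def PkgBlkE : Prop :=
  ∀ (F : Type u) [Field F] [Fintype F] (ι : Type) [Fintype ι] [DecidableEq ι]
    (Q : (ι → F) → F) (r : ℕ) (x : Matrix ι ι F), StdE Q r x →
    ∀ W : Submodule F (ι → F), W ≤ movSp x → Inv x W → Nd Q W → W ≠ ⊥ →
      ∃ D : Submodule F (ι → F), D ≤ W ∧ Inv x D ∧ Nd Q D ∧
        Module.finrank F D = cc (Fintype.card F) r ∧
        (Plus Q D ↔ Odd (ordI (Fintype.card F) r))

/-- [DIVE] = OHYP [DIV] without `2 ≠ 0`. -/
def PkgDivE : Prop :=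
  ∀ (F : Type u) [Field F] [Fintype F] (ι : Type) [Fintype ι] [DecidableEq ι]
    (Q : (ι → F) → F) (r : ℕ) (x : Matrix ι ι F), StdE Q r x →
    ∀ W : Submodule F (ι → F), W ≤ movSp x → Inv x W → Nd Q W →
      cc (Fintype.card F) r ∣ Module.finrank F W ∧
      (Plus Q W ↔ (Odd (ordI (Fintype.card F) r) ∨
        Even (Module.finrank F W / ordI (Fintype.card F) r)))

/-- [SUBE] = OHYP [SUB] without `2 ≠ 0`. -/
def PkgSubE : Prop :=
  ∀ (F : Type u) [Field F] [Fintype F] (ι : Type) [Fintype ι] [DecidableEq ι]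
    (Q : (ι → F) → F) (r : ℕ) (x : Matrix ι ι F), StdE Q r x →
    ∀ W : Submodule F (ι → F), W ≤ movSp x → Inv x W → Nd Q W →
    ∀ j : ℕ, cc (Fintype.card F) r * j ≤ Module.finrank F W →
      ∃ W' : Submodule F (ι → F), W' ≤ W ∧ Inv x W' ∧ Nd Q W' ∧
        Module.finrank F W' = cc (Fintype.card F) r * j

/-- [ELLISOE] = OELL [ELLISO] without `2 ≠ 0`. -/
def PkgEllIsoE : Prop :=
  ∀ (F : Type u) [Field F] [Fintype F] (ι : Type) [Fintype ι] [DecidableEq ι]
    (Q : (ι → F) → F), Cfsg.Geo.IsNondegenerateQuadraticForm Q →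
    ∀ W W' : Submodule F (ι → F), Nd Q W → Nd Q W' →
      Module.finrank F W = Module.finrank F W' → Even (Module.finrank F W) →
      ¬ Plus Q W → ¬ Plus Q W' →
      ∃ e : W ≃ₗ[F] W', ∀ w : W, Q ((e w : W') : ι → F) = Q (w : ι → F)

/-! ### `r` odd: the per-element criterion -/

/-- [JB] the block count of a nontrivial element on a plus-type space. -/
def PkgJB : Prop :=
  ∀ (F : Type u) [Field F] [Fintype F] (ι : Type) [Fintype ι] [DecidableEq ι]
    (Q : (ι → F) → F) (r : ℕ) (x : Matrix ι ι F), StdE Q r x → x ≠ 1 → Plus Q ⊤ →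
      cc (Fintype.card F) r ∣ Module.finrank F (movSp x) ∧
      0 < Module.finrank F (movSp x) ∧
      Module.finrank F (fixSp x) + Module.finrank F (movSp x) = Fintype.card ι ∧
      (Module.finrank F (fixSp x) = 0 →
        (Odd (ordI (Fintype.card F) r) ∨
          Even (Module.finrank F (movSp x) / ordI (Fintype.card F) r)))

/-- [FIXE] a good `j` gives an invariant elliptic `m`-space. -/
def PkgFixE : Prop :=
  ∀ (F : Type u) [Field F] [Fintype F] (ι : Type) [Fintype ι] [DecidableEq ι]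
    (Q : (ι → F) → F) (r : ℕ) (x : Matrix ι ι F), StdE Q r x → Plus Q ⊤ →
    ∀ m j : ℕ, Even m → cc (Fintype.card F) r * j ≤ m →
      cc (Fintype.card F) r * j ≤ Module.finrank F (movSp x) →
      Good (ordI (Fintype.card F) r) (m - cc (Fintype.card F) r * j)
        (Module.finrank F (fixSp x)) (Module.finrank F (movSp x) / cc (Fintype.card F) r) j →
      ∃ W : Submodule F (ι → F), (Module.finrank F ↥W = m ∧
        Cfsg.Geo.IsNondegenerateOn (QuadraticMap.polar Q) W ∧ ¬ Cfsg.Geo.IsPlusTypeOn Q W) ∧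
        W.map (Matrix.toLin' x) ≤ W

/-- [DERE] an invariant elliptic `m`-space gives a good `j`. -/
def PkgDerE : Prop :=
  ∀ (F : Type u) [Field F] [Fintype F] (ι : Type) [Fintype ι] [DecidableEq ι]
    (Q : (ι → F) → F) (r : ℕ) (x : Matrix ι ι F), StdE Q r x → Plus Q ⊤ →
    ∀ (m : ℕ) (W : Submodule F (ι → F)), Even m → Module.finrank F ↥W = m → Nd Q W →
      ¬ Plus Q W → Inv x W →
      ∃ j : ℕ, cc (Fintype.card F) r * j ≤ m ∧
        cc (Fintype.card F) r * j ≤ Module.finrank F (movSp x) ∧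
        Good (ordI (Fintype.card F) r) (m - cc (Fintype.card F) r * j)
          (Module.finrank F (fixSp x)) (Module.finrank F (movSp x) / cc (Fintype.card F) r) j

/-- [EXISTP] elements of order `r` of `O⁺_{2d}(q)` with `J` blocks, any characteristic. -/
def PkgExistP : Prop :=
  ∀ (F : Type u) [Field F] [Fintype F] (d r : ℕ), r.Prime → r ≠ 2 → ¬ r ∣ Fintype.card F →
    ∀ J : ℕ, 1 ≤ J → cc (Fintype.card F) r * J ≤ 2 * d →
      (cc (Fintype.card F) r * J = 2 * d → (Odd (ordI (Fintype.card F) r) ∨ Even J)) →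
      ∃ x : GL (Fin d ⊕ Fin d) F, x ∈ Cfsg.isometryGroup F (Cfsg.quadFormPlus d F) ∧
        orderOf x = r ∧
        Module.finrank F (fixSp (x : Matrix (Fin d ⊕ Fin d) (Fin d ⊕ Fin d) F)) +
          cc (Fintype.card F) r * J = 2 * d

/-- [RED] reduction from `Ω` / scalar `r`-th power to isometries of order `r`. -/
def PkgRed : Prop :=
  ∀ (F : Type u) [Field F] [Fintype F] (d m r : ℕ), 4 ≤ d → r.Prime → r ≠ 2 →
    (AllFix (Cfsg.quadFormPlus d F) m r ↔ AllFixIso (Cfsg.quadFormPlus d F) m r)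

/-! ### `r` odd: numerics (pure arithmetic) -/

/-- [NUMFIX] the right-hand side gives a good `j` for every admissible `(J, D)`. -/
def PkgNumFix : Prop :=
  ∀ d m i c : ℕ, 4 ≤ d → 2 ≤ m → Even m → m < d → 0 < i → c = (if Even i then i else 2 * i) →
    RhsOdd d m i c →
    ∀ J D : ℕ, 1 ≤ J → D + c * J = 2 * d → (D = 0 → (Odd i ∨ Even J)) →
      ∃ j : ℕ, c * j ≤ m ∧ j ≤ J ∧ Good i (m - c * j) D J j

/-- [NUMDER] if the right-hand side fails then the element with `J = 2d / c` blocks has no good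
`j`, or we are in one of the two cases excluded by the index hypothesis. -/
def PkgNumDer : Prop :=
  ∀ d m i c : ℕ, 4 ≤ d → 2 ≤ m → Even m → m < d → 0 < i → c = (if Even i then i else 2 * i) →
    ¬ RhsOdd d m i c →
    (1 ≤ 2 * d / c ∧ ((2 * d) % c = 0 → (Odd i ∨ Even (2 * d / c))) ∧
      ∀ j : ℕ, c * j ≤ m → j ≤ 2 * d / c → ¬ Good i (m - c * j) ((2 * d) % c) (2 * d / c) j) ∨
    (m < c ∧ m < (2 * d) % c) ∨
    (Even i ∧ m < c ∧ m = (2 * d) % c ∧ Odd ((2 * d) / i))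

/-! ### `r` odd: the index hypothesis -/

/-- [CONGE] fixed-point congruence for the cyclic group generated by `x`. -/
def PkgCongE : Prop :=
  ∀ (F : Type u) [Field F] [Fintype F] (ι : Type) [Fintype ι] [DecidableEq ι]
    (Q : (ι → F) → F) (m r : ℕ), r.Prime →
    ∀ x : GL ι F, x ∈ Cfsg.isometryGroup F Q → x ^ r = 1 →
      Nat.card (EllSp Q m) ≡ Nat.card {W : EllSp Q m // Inv (x : Matrix ι ι F) W.1} [MOD r]

/-- [CNTFIXE] an invariant nondegenerate subspace of dimension `< c` is fixed pointwise. -/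
def PkgCntFixE : Prop :=
  ∀ (F : Type u) [Field F] [Fintype F] (ι : Type) [Fintype ι] [DecidableEq ι]
    (Q : (ι → F) → F) (r : ℕ) (x : Matrix ι ι F), StdE Q r x →
    ∀ W : Submodule F (ι → F), Nd Q W → Inv x W →
      Module.finrank F W < cc (Fintype.card F) r → W ≤ fixSp x

/-- [CNTWITTE] the pointwise stabilizer of `movSp x` is transitive on the elliptic `m`-spaces
inside `fixSp x`. -/
def PkgCntWittE : Prop :=
  ∀ (F : Type u) [Field F] [Fintype F] (ι : Type) [Fintype ι] [DecidableEq ι]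
    (Q : (ι → F) → F) (r : ℕ) (x : Matrix ι ι F), StdE Q r x →
    ∀ (m : ℕ), Even m → ∀ (W W' : EllSp Q m), W.1 ≤ fixSp x → W'.1 ≤ fixSp x →
      ∃ g : GL ι F, g ∈ Cfsg.isometryGroup F Q ∧
        (∀ v ∈ movSp x, (g : Matrix ι ι F) *ᵥ v = v) ∧
        W.1.map (Matrix.toLin' (g : Matrix ι ι F)) = W'.1

/-- [CNTCAUCHYE] the pointwise stabilizer of `movSp x` has no element of order `r` when
`dim fixSp x < c`. -/
def PkgCntCauchyE : Prop :=
  ∀ (F : Type u) [Field F] [Fintype F] (ι : Type) [Fintype ι] [DecidableEq ι]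
    (Q : (ι → F) → F) (r : ℕ) (x : Matrix ι ι F), StdE Q r x →
    Module.finrank F (fixSp x) < cc (Fintype.card F) r →
    ∀ g : GL ι F, g ∈ Cfsg.isometryGroup F Q →
      (∀ v ∈ movSp x, (g : Matrix ι ι F) *ᵥ v = v) → g ^ r = 1 → g = 1

/-- [CNTINE] the number of elliptic `m`-spaces inside `fixSp x` is prime to `r`. -/
def PkgCntInE : Prop :=
  ∀ (F : Type u) [Field F] [Fintype F] (ι : Type) [Fintype ι] [DecidableEq ι]
    (Q : (ι → F) → F) (r : ℕ) (x : Matrix ι ι F), StdE Q r x →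
    ∀ (m : ℕ), Even m → 2 ≤ m → m < Module.finrank F (fixSp x) →
      Module.finrank F (fixSp x) < cc (Fintype.card F) r →
      ¬ r ∣ Nat.card {W : EllSp Q m // W.1 ≤ fixSp x}

/-- [CNT1] `m < c`, `m < 2d mod c`: the number of elliptic `m`-spaces is prime to `r`. -/
def PkgCnt1 : Prop :=
  ∀ (F : Type u) [Field F] [Fintype F] (d r : ℕ), r.Prime → r ≠ 2 → ¬ r ∣ Fintype.card F →
    ∀ m : ℕ, Even m → 2 ≤ m → m < cc (Fintype.card F) r →
      m < (2 * d) % cc (Fintype.card F) r →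
      ¬ r ∣ Nat.card (EllSp (Cfsg.quadFormPlus d F) m)

/-- [CNT2] `i` even, `m = 2d mod c < c`, `2d / i` odd: the number of elliptic `m`-spaces is
`≡ 1 (mod r)`. -/
def PkgCnt2 : Prop :=
  ∀ (F : Type u) [Field F] [Fintype F] (d r : ℕ), r.Prime → r ≠ 2 → ¬ r ∣ Fintype.card F →
    ∀ m : ℕ, Even m → 2 ≤ m → Even (ordI (Fintype.card F) r) → m < cc (Fintype.card F) r →
      m = (2 * d) % cc (Fintype.card F) r → Odd ((2 * d) / ordI (Fintype.card F) r) →
      ¬ r ∣ Nat.card (EllSp (Cfsg.quadFormPlus d F) m)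

end Cfsg.Agent.Lib.Helper44.OElp
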