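-- Team project OELP (S5988), package [ODDOMEGAE] (helper44): isometries of odd order lie in Ω,
-- any characteristic.
import Mathlib
import Cfsg.Agent.Lib.Helper44.OElp.Defs
import Cfsg.Agent.Lib.Helper44.SumForm
import Cfsg.Agent.Lib.Helper44.SiegelOmega

set_option autoImplicit false
open scoped MatrixGroups
open Matrix

namespace Cfsg.Agent.Lib.Helper44.OElp

universe u

theorem pkgOddOmegaE : PkgOddOmegaE.{u} := by
  intro F _ _ ι _ _ Q hQ hcard x hx hodd
  obtain ⟨Q', rfl, hQ'⟩ := Cfsg.Agent.Lib.Helper44.exists_quadraticForm_of_geo hQ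
  set g : ↥(Cfsg.isometryGroup F ⇑Q') := ⟨x, hx⟩ with hg
  have hmem : g ∈ commutator ↥(Cfsg.isometryGroup F ⇑Q') := by
    apply Cfsg.Agent.Lib.Helper44.mem_commutator_of_forall_hom Q' hQ' hcard g
    intro χ
    have h1 : g ^ orderOf x = 1 := by
      apply Subtype.ext
      rw [hg]
      simp only [SubmonoidClass.mk_pow, OneMemClass.coe_one]
      exact pow_orderOf_eq_one x
    have h2 : (χ g) ^ orderOf x = 1 := by rw [← map_pow, h1, map_one]
    have h3 : (χ g) ^ 2 = 1 := Int.units_sq _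
    obtain ⟨k, hk⟩ := hodd
    rw [hk, pow_add, pow_mul, h3, one_pow, one_mul, pow_one] at h2
    exact h2
  exact (Cfsg.Agent.Lib.Helper44.coe_mem_omegaGL_iff g).mpr hmem

end Cfsg.Agent.Lib.Helper44.OElp
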