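-- Team project OELP (S5988): assembly of the case `r` odd, `r ≠ p` from the packages (helper44).
import Mathlib
import Cfsg.Agent.Lib.Helper44.OElp.Defs

set_option autoImplicit false
open scoped MatrixGroups
open Matrix

namespace Cfsg.Agent.Lib.Helper44.OElp

open Cfsg.Agent.Lib.Helper23.OHyp

universe u

theorem ordI_pos' {q r : ℕ} (hr : r.Prime) (hrq : ¬ r ∣ q) : 0 < ordI q r := by
  have : Fact r.Prime := ⟨hr⟩
  unfold ordI
  rw [orderOf_pos_iff, isOfFinOrder_iff_pow_eq_one]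
  refine ⟨r - 1, by have := hr.two_le; omega, ?_⟩
  apply ZMod.pow_card_sub_one_eq_one
  rwa [Ne, ZMod.natCast_eq_zero_iff]

theorem cc_def (q r : ℕ) : cc q r = if Even (ordI q r) then ordI q r else 2 * ordI q r := rfl

theorem cc_pos' {q r : ℕ} (h : 0 < ordI q r) : 0 < cc q r := by
  rw [cc_def]
  split_ifs <;> omega

theorem natCast_ne_zero_of_not_dvd {F : Type u} [Field F] [Fintype F] {r : ℕ} (hr : r.Prime)
    (hrq : ¬ r ∣ Fintype.card F) : (r : F) ≠ 0 := by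
  intro h0
  obtain ⟨p, hp⟩ := CharP.exists F
  have := hp
  have hpr : p ∣ r := (CharP.cast_eq_zero_iff F p r).mp h0
  obtain ⟨n, hpp, hn⟩ := FiniteField.card F p
  have hpeq : p = r := (Nat.prime_dvd_prime_iff_eq hpp hr).mp hpr
  subst hpeq
  exact hrq (hn ▸ dvd_pow_self p n.ne_zero)

section
variable {F : Type u} [Field F] [Fintype F] {ι : Type} [Fintype ι] [DecidableEq ι]

theorem stdE_of_order {Q : (ι → F) → F} (hQ : Cfsg.Geo.IsNondegenerateQuadraticForm Q)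
    {r : ℕ} (hr : r.Prime) (hr2 : r ≠ 2) (hrq : ¬ r ∣ Fintype.card F)
    {x : GL ι F} (hx : x ∈ Cfsg.isometryGroup F Q) (hxord : orderOf x = r) :
    StdE Q r (x : Matrix ι ι F) := by
  have hpow : (x : Matrix ι ι F) ^ r = 1 := by
    have h := pow_orderOf_eq_one x
    rw [hxord] at h
    rw [← Units.val_pow_eq_pow_val, h]; rfl
  exact ⟨hQ, hr, hr2, hrq, natCast_ne_zero_of_not_dvd hr hrq, hpow, fun v => hx v v⟩

theorem val_ne_one_of_order {r : ℕ} (hr : r.Prime) {x : GL ι F} (hxord : orderOf x = r) :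
    (x : Matrix ι ι F) ≠ 1 := by
  intro h
  have : x = 1 := Units.ext h
  rw [this, orderOf_one] at hxord
  exact hr.one_lt.ne hxord

end

/-- [RODD] from the packages. -/
theorem pkgROdd_of (hRed : PkgRed.{u}) (hPQ : PkgPlusQE.{u}) (hJB : PkgJB.{u})
    (hNF : PkgNumFix) (hND : PkgNumDer) (hFix : PkgFixE.{u}) (hDer : PkgDerE.{u})
    (hEx : PkgExistP.{u}) (hC1 : PkgCnt1.{u}) (hC2 : PkgCnt2.{u}) : PkgROdd.{u} := by
  intro F _ _ d m hd hm hme hmd r hr hr2 hrq hdiv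
  have hi0 : 0 < ordI (Fintype.card F) r := ordI_pos' hr hrq
  have hc0 : 0 < cc (Fintype.card F) r := cc_pos' hi0
  have hcdef := cc_def (Fintype.card F) r
  obtain ⟨hQnd, hPlus⟩ := hPQ F d
  have hcard : Fintype.card (Fin d ⊕ Fin d) = 2 * d := by
    rw [Fintype.card_sum, Fintype.card_fin]; ring
  rw [hRed F d m r hd hr hr2]
  constructor
  · intro hAll
    by_contra hR
    rcases hND d m _ _ hd hm hme hmd hi0 hcdef hR with ⟨hJ1, hadm, hno⟩ | ⟨h1, h2⟩ |
      ⟨h1, h2, h3, h4⟩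
    · have hdm := Nat.div_add_mod (2 * d) (cc (Fintype.card F) r)
      obtain ⟨x, hxO, hxord, hxfix⟩ := hEx F d r hr hr2 hrq (2 * d / cc (Fintype.card F) r) hJ1
        (Nat.mul_div_le (2 * d) _) (fun h => hadm (by omega))
      have hS := stdE_of_order hQnd hr hr2 hrq hxO hxord
      obtain ⟨W, ⟨hWm, hWnd, hWnp⟩, hWinv⟩ := hAll x hxO hxord
      obtain ⟨j, hj1, hj2, hgood⟩ := hDer F _ _ r _ hS hPlus m W hme hWm hWnd hWnp hWinv
      obtain ⟨-, -, hsum, -⟩ := hJB F _ _ r _ hS (val_ne_one_of_order hr hxord) hPlus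
      rw [hcard] at hsum
      have hD : Module.finrank F (fixSp (x : Matrix (Fin d ⊕ Fin d) (Fin d ⊕ Fin d) F)) =
          (2 * d) % cc (Fintype.card F) r := by omega
      have hN : Module.finrank F (movSp (x : Matrix (Fin d ⊕ Fin d) (Fin d ⊕ Fin d) F)) =
          cc (Fintype.card F) r * (2 * d / cc (Fintype.card F) r) := by omega
      rw [hD, hN, Nat.mul_div_cancel_left _ hc0] at hgood
      rw [hN] at hj2
      exact hno j hj1 (Nat.le_of_mul_le_mul_left hj2 hc0) hgood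
    · exact hC1 F d r hr hr2 hrq m hme hm h1 h2 hdiv
    · exact hC2 F d r hr hr2 hrq m hme hm h1 h2 h3 h4 hdiv
  · intro hR x hxO hxord
    have hS := stdE_of_order hQnd hr hr2 hrq hxO hxord
    obtain ⟨⟨J, hJ⟩, hNpos, hsum, hD0⟩ := hJB F _ _ r _ hS (val_ne_one_of_order hr hxord) hPlus
    rw [hcard] at hsum
    have hJ1 : 1 ≤ J := by
      rcases Nat.eq_zero_or_pos J with h | h
      · rw [h, mul_zero] at hJ; omega
      · exact h
    have hadm : Module.finrank F (fixSp (x : Matrix (Fin d ⊕ Fin d) (Fin d ⊕ Fin d) F)) = 0 →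
        (Odd (ordI (Fintype.card F) r) ∨ Even J) := by
      intro h0
      rcases hD0 h0 with h | h
      · exact Or.inl h
      · by_cases hie : Even (ordI (Fintype.card F) r)
        · right
          have hci : cc (Fintype.card F) r = ordI (Fintype.card F) r := by
            rw [hcdef, if_pos hie]
          rw [hJ, hci, Nat.mul_div_cancel_left _ hi0] at h
          exact h
        · exact Or.inl (Nat.not_even_iff_odd.mp hie)
    obtain ⟨j, hj1, hj2, hgood⟩ := hNF d m _ _ hd hm hme hmd hi0 hcdef hR J _ hJ1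
      (by rw [← hJ]; exact hsum) hadm
    refine hFix F _ _ r _ hS hPlus m j hme hj1 (by rw [hJ]; exact Nat.mul_le_mul_left _ hj2) ?_
    rw [hJ, Nat.mul_div_cancel_left _ hc0]
    exact hgood


/-- The frozen statement of S5988 from the three cases. -/
theorem result_of (hRP : PkgRP.{u}) (hR2 : PkgR2.{u}) (hRO : PkgROdd.{u})
    {F : Type u} [Field F] [Fintype F] {p : ℕ} [Fact p.Prime] [CharP F p] {q : ℕ} (hq : Fintype.card F = q)
    (d m : ℕ) (hd : 4 ≤ d) (hm : 2 ≤ m) (hme : Even m) (hmd : m < d)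
    (r : ℕ) [Fact r.Prime]
    (hrΩ : r ∣ Nat.card {W : Submodule F (Fin d ⊕ Fin d → F) // Module.finrank F ↥W = m ∧ Cfsg.Geo.IsNondegenerateOn (QuadraticMap.polar (Cfsg.quadFormPlus d F)) W ∧ ¬ Cfsg.Geo.IsPlusTypeOn (Cfsg.quadFormPlus d F) W})
    (i c : ℕ) (hi : i = orderOf (q : ZMod r)) (hc : c = if Even i then i else 2 * i) :
    (∀ x : GL (Fin d ⊕ Fin d) F, x ∈ Cfsg.Geo.omegaGL (Cfsg.quadFormPlus d F) →
      (∃ z : F, ((x ^ r : GL (Fin d ⊕ Fin d) F) : Matrix (Fin d ⊕ Fin d) (Fin d ⊕ Fin d) F) = z • (1 : Matrix (Fin d ⊕ Fin d) (Fin d ⊕ Fin d) F)) →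
      (∀ z : F, (x : Matrix (Fin d ⊕ Fin d) (Fin d ⊕ Fin d) F) ≠ z • (1 : Matrix (Fin d ⊕ Fin d) (Fin d ⊕ Fin d) F)) →
      ∃ W : Submodule F (Fin d ⊕ Fin d → F), (Module.finrank F ↥W = m ∧ Cfsg.Geo.IsNondegenerateOn (QuadraticMap.polar (Cfsg.quadFormPlus d F)) W ∧ ¬ Cfsg.Geo.IsPlusTypeOn (Cfsg.quadFormPlus d F) W) ∧ W.map (Matrix.toLin' (x : Matrix (Fin d ⊕ Fin d) (Fin d ⊕ Fin d) F)) ≤ W) ↔
    ((r = 2 ∧ p ≠ 2 ∧ ((Even d ∧ q % 4 = 3 ∧ m % 4 = 2) ∨ (Odd d ∧ q % 8 ≠ 1))) ∨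
     (r ≠ p ∧ 2 < r ∧ Odd i ∧ c ≤ m ∧ 0 < m % c ∧ m % c < (2 * d) % c) ∨
     (r ≠ p ∧ 2 < r ∧ Even i ∧
       (((2 * d) % c = 0 ∧ (Odd ((2 * d) / i) ∨ (m % c = 0 ∧ Odd (m / i)))) ∨
        (i ≤ m ∧ ((0 < m % c ∧ m % c < (2 * d) % c) ∨
                  (0 < m % c ∧ m % c = (2 * d) % c ∧ Odd ((2 * d + m - 2 * ((2 * d) % c)) / i)) ∨
                  (m % c = 0 ∧ 0 < (2 * d) % c ∧ Odd (m / i))))))) := by
  subst hq
  have hr : r.Prime := Fact.out
  have hpp : p.Prime := Fact.out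
  change AllFix (Cfsg.quadFormPlus d F) m r ↔ _
  by_cases hrp : r = p
  · subst hrp
    have hL : ¬ AllFix (Cfsg.quadFormPlus d F) m r := by
      intro hAll
      obtain ⟨x, hxΩ, hxp, hxns, hxW⟩ := hRP F r d m hd hme
      obtain ⟨W, ⟨hWm, hWnd, hWnp⟩, hWinv⟩ := hAll x hxΩ ⟨1, by rw [hxp]; simp⟩ hxns
      exact hWnp (hxW W hWm hWinv)
    constructor
    · intro h; exact absurd h hL
    · rintro (⟨h2, hp2, -⟩ | ⟨hne, -⟩ | ⟨hne, -⟩)
      · exact absurd h2 hp2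
      · exact absurd rfl hne
      · exact absurd rfl hne
  · by_cases hr2 : r = 2
    · subst hr2
      have hp2 : p ≠ 2 := fun h => hrp h.symm
      have h2F : (2 : F) ≠ 0 := by
        intro h
        have h' : ((2 : ℕ) : F) = 0 := by exact_mod_cast h
        have : p ∣ 2 := (CharP.cast_eq_zero_iff F p 2).mp h'
        exact hp2 ((Nat.prime_dvd_prime_iff_eq hpp Nat.prime_two).mp this)
      rw [hR2 F h2F d m hd hm hme hmd]
      constructor
      · intro h; exact Or.inl ⟨rfl, hp2, h⟩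
      · rintro (⟨-, -, h⟩ | ⟨-, h, -⟩ | ⟨-, h, -⟩)
        · exact h
        · exact absurd h (by norm_num)
        · exact absurd h (by norm_num)
    · have hrq : ¬ r ∣ Fintype.card F := by
        intro h
        obtain ⟨n, -, hn⟩ := FiniteField.card F p
        rw [hn] at h
        exact hrp ((Nat.prime_dvd_prime_iff_eq hr hpp).mp (hr.dvd_of_dvd_pow h))
      have h2r : 2 < r := lt_of_le_of_ne hr.two_le (Ne.symm hr2)
      have hi' : i = ordI (Fintype.card F) r := hi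
      have hc' : c = cc (Fintype.card F) r := by rw [hc, hi']; rfl
      rw [hRO F d m hd hm hme hmd r hr hr2 hrq hrΩ, ← hi', ← hc']
      unfold RhsOdd
      constructor
      · rintro (⟨h1, h2, h3, h4⟩ | ⟨h1, h2⟩)
        · exact Or.inr (Or.inl ⟨hrp, h2r, h1, h2, h3, h4⟩)
        · exact Or.inr (Or.inr ⟨hrp, h2r, h1, h2⟩)
      · rintro (⟨h, -, -⟩ | ⟨-, -, h1, h2, h3, h4⟩ | ⟨-, -, h1, h2⟩)
        · exact absurd h hr2
        · exact Or.inl ⟨h1, h2, h3, h4⟩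
        · exact Or.inr ⟨h1, h2⟩

end Cfsg.Agent.Lib.Helper44.OElp
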