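-- Team project OELP (S5988), package [EXISTP] (helper44): elements of order `r` of `O⁺_{2d}(q)`
-- with `J` blocks, any characteristic (from helper14's OCls existence theorems).
import Mathlib
import Cfsg.Agent.Lib.Helper44.OElp.Defs
import Cfsg.Agent.Lib.Helper44.OElp.Asm
import Cfsg.Agent.Lib.Helper14.OCls.Final
import Cfsg.Agent.Lib.Helper40.SpImprim

set_option autoImplicit false
open scoped MatrixGroups
open Matrix Polynomial

namespace Cfsg.Agent.Lib.Helper44.OElp

open Cfsg.Agent.Lib.Helper23.OHyp Cfsg.Agent.Lib.Helper40.PrimeOrderGL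
  Cfsg.Agent.Lib.Helper40.DualPoly Cfsg.Agent.Lib.Helper14.OCls

universe u

section
variable {F : Type u} [Field F] [Fintype F] [DecidableEq F]

theorem exist_of_chi {d r b : ℕ} {S : Finset F[X]} (hS : Factors S r b) (hr : r.Prime)
    (hrF : (r : F) ≠ 0) (g : Matrix (Fin d ⊕ Fin d) (Fin d ⊕ Fin d) F) (hgr : g ^ r = 1)
    (hgiso : ∀ v, Cfsg.quadFormPlus d F (g *ᵥ v) = Cfsg.quadFormPlus d F v)
    (a : S → ℕ) (k N : ℕ) (hχ : g.charpoly = chi S a k) (hk : k + N = 2 * d) (hN : 0 < N) :
    ∃ x : GL (Fin d ⊕ Fin d) F, x ∈ Cfsg.isometryGroup F (Cfsg.quadFormPlus d F) ∧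
      orderOf x = r ∧
      Module.finrank F (fixSp (x : Matrix (Fin d ⊕ Fin d) (Fin d ⊕ Fin d) F)) + N = 2 * d := by
  have hr1 : 1 ≤ r := hr.one_lt.le
  have hinv1 : g * g ^ (r - 1) = 1 := by rw [← pow_succ', Nat.sub_add_cancel hr1, hgr]
  have hinv2 : g ^ (r - 1) * g = 1 := by rw [← pow_succ, Nat.sub_add_cancel hr1, hgr]
  let x : GL (Fin d ⊕ Fin d) F := ⟨g, g ^ (r - 1), hinv1, hinv2⟩
  have hfix : Module.finrank F (fixSp (x : Matrix (Fin d ⊕ Fin d) (Fin d ⊕ Fin d) F)) = k :=
    Cfsg.Agent.Lib.Helper40.SpImprim.finrank_fix_of_chi hS hrF g hgr a k hχ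
  have hxr : x ^ r = 1 := by
    apply Units.ext
    rw [Units.val_pow_eq_pow_val]
    exact hgr
  have hx1 : x ≠ 1 := by
    intro h
    have hg1 : g = 1 := congrArg Units.val h
    have h2 : fixSp (x : Matrix (Fin d ⊕ Fin d) (Fin d ⊕ Fin d) F) = ⊤ := by
      rw [eq_top_iff]
      intro v _
      show v ∈ LinearMap.ker (Matrix.toLin' g - 1)
      rw [hg1, LinearMap.mem_ker]
      simp
    rw [h2, finrank_top, Module.finrank_fintype_fun_eq_card, Fintype.card_sum,
      Fintype.card_fin] at hfix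
    omega
  have : Fact r.Prime := ⟨hr⟩
  refine ⟨x, fun u _ => hgiso u, orderOf_eq_prime hxr hx1, ?_⟩
  rw [hfix, hk]

end

/-- [EXISTP]. -/
theorem pkgExistP : PkgExistP.{u} := by
  intro F _ _ d r hr hr2 hrq J hJ1 hle hadm
  classical
  obtain ⟨p, hp⟩ := CharP.exists F
  have := hp
  obtain ⟨n, hpp, hn⟩ := FiniteField.card F p
  have : Fact p.Prime := ⟨hpp⟩
  have hrp : r ≠ p := by
    intro h
    apply hrq
    rw [hn, h]
    exact dvd_pow_self p n.ne_zero
  have : Fact r.Prime := ⟨hr⟩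
  have hi0' : 0 < ordI (Fintype.card F) r := ordI_pos' hr hrq
  have hc0 : 0 < cc (Fintype.card F) r := cc_pos' hi0'
  have hidvd : ordI (Fintype.card F) r ∣ r - 1 := by
    unfold ordI
    apply orderOf_dvd_of_pow_eq_one
    apply ZMod.pow_card_sub_one_eq_one
    rwa [Ne, ZMod.natCast_eq_zero_iff]
  obtain ⟨t, ht⟩ := hidvd
  obtain ⟨S, hS, hScard, hrF, -, hi0, ht0, dg, hdg, hdd, hcase, hoddS, hevenS⟩ :=
    exists_setup (F := F) rfl r (ordI (Fintype.card F) r) t hr hr2 hrp rfl
      (by rw [mul_comm]; exact ht.symm)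
  obtain ⟨π₀, hπ₀⟩ : S.Nonempty := Finset.card_pos.mp (by rw [hScard]; exact ht0)
  rcases hcase with ⟨ho, hne⟩ | ⟨he, hid⟩
  · have hc : cc (Fintype.card F) r = 2 * ordI (Fintype.card F) r := by
      rw [cc_def, if_neg (Nat.not_even_iff_odd.mpr ho)]
    let P₀ : S := ⟨π₀, hπ₀⟩
    let a : S → ℕ := fun π => if π = P₀ ∨ π = dg P₀ then J else 0
    have ha : ∀ π, a (dg π) = a π := by
      intro π
      have e : (dg π = P₀ ∨ dg π = dg P₀) ↔ (π = P₀ ∨ π = dg P₀) := by
        constructor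
        · rintro (h | h)
          · right; rw [← h, hdd]
          · left; have := congrArg dg h; rwa [hdd, hdd] at this
        · rintro (h | h)
          · right; rw [h]
          · left; rw [h, hdd]
      simp only [a, e]
    have hsum : ∑ π, a π = 2 * J := by
      have h1 : ∀ π : S, a π = (if π = P₀ then J else 0) + (if π = dg P₀ then J else 0) := by
        intro π
        simp only [a]
        by_cases h1 : π = P₀
        · have h2 : P₀ ≠ dg P₀ := fun h => hne P₀ h.symm
          rw [h1]; simp [h2]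
        · by_cases h2 : π = dg P₀
          · rw [h2]; simp [hne P₀]
          · simp [h1, h2]
      rw [Finset.sum_congr rfl (fun π _ => h1 π), Finset.sum_add_distrib,
        Finset.sum_ite_eq' Finset.univ P₀, Finset.sum_ite_eq' Finset.univ (dg P₀)]
      simp
      ring
    obtain ⟨g, hgr, hgiso, hgχ⟩ := Cfsg.Agent.Lib.Helper27.OCls.pkgExOddB p S r
      (ordI (Fintype.card F) r) hS hr hrF dg hdg hne d a ha (by
        rw [hsum]; rw [hc] at hle
        calc ordI (Fintype.card F) r * (2 * J) = 2 * ordI (Fintype.card F) r * J := by ring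
          _ ≤ 2 * d := hle)
    rw [hsum] at hgχ
    refine exist_of_chi hS hr hrF g hgr hgiso a _ (cc (Fintype.card F) r * J) hgχ ?_
      (Nat.mul_pos hc0 hJ1)
    rw [hc] at hle ⊢
    have e : ordI (Fintype.card F) r * (2 * J) = 2 * ordI (Fintype.card F) r * J := by ring
    rw [e]
    omega
  · have hc : cc (Fintype.card F) r = ordI (Fintype.card F) r := by
      rw [cc_def, if_pos he]
    let P₀ : S := ⟨π₀, hπ₀⟩
    let a : S → ℕ := fun π => if π = P₀ then J else 0
    have hsum : ∑ π, a π = J := by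
      simp only [a]
      rw [Finset.sum_ite_eq' Finset.univ P₀]
      simp
    rw [hc] at hle hadm
    obtain ⟨g, hgr, hgiso, hgχ⟩ := exEvenPlus p S r (ordI (Fintype.card F) r) hS hr hr2 hrF rfl
      he (hevenS he) d a (by rw [hsum]; exact hle) (by
        rw [hsum]
        intro h
        rcases hadm h with h1 | h1
        · exact absurd he (Nat.not_even_iff_odd.mpr h1)
        · exact h1)
    rw [hsum] at hgχ
    refine exist_of_chi hS hr hrF g hgr hgiso a _ (cc (Fintype.card F) r * J) hgχ ?_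
      (Nat.mul_pos hc0 hJ1)
    rw [hc]
    omega

end Cfsg.Agent.Lib.Helper44.OElp
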