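-- Team project OELP (S5988), package [RP] (helper44): the unipotent derangement, any p.
import Mathlib
import Cfsg.Agent.Lib.Helper44.OElp.Defs
import Cfsg.Agent.Lib.Helper44.OElp.OddOmega
import Cfsg.Agent.Lib.Helper44.Dickson
import Cfsg.Agent.Lib.Helper44.SiegelOmega

set_option autoImplicit false
open scoped MatrixGroups
open Matrix

namespace Cfsg.Agent.Lib.Helper44.OElp

open Cfsg.Agent.Lib.Helper23.OHyp

universe u

/-- The pairing involution `2a ↔ 2a+1` of `Fin d` (the last index is fixed when `d` is odd). -/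
def sw (d : ℕ) (a : Fin d) : Fin d :=
  if a.val % 2 = 0 then (if h : a.val + 1 < d then ⟨a.val + 1, h⟩ else a)
  else ⟨a.val - 1, by omega⟩

theorem sw_sw (d : ℕ) (a : Fin d) : sw d (sw d a) = a := by
  unfold sw
  by_cases he : a.val % 2 = 0
  · by_cases h : a.val + 1 < d
    · simp only [he, h, if_true, dif_pos]
      have h1 : ¬ ((a.val + 1) % 2 = 0) := by omega
      simp only [h1, if_false]
      apply Fin.ext
      simp
    · simp only [he, h, if_true, dif_neg, not_false_eq_true]
  · simp only [he, if_false]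
    have h1 : (a.val - 1) % 2 = 0 := by omega
    have h2 : a.val - 1 + 1 < d := by have := a.isLt; omega
    simp only [h1, if_true, h2, dif_pos]
    apply Fin.ext
    simp only
    omega

theorem sw_fixed (d : ℕ) (a : Fin d) (h : sw d a = a) : a.val + 1 = d := by
  unfold sw at h
  by_cases he : a.val % 2 = 0
  · by_cases h1 : a.val + 1 < d
    · simp only [he, h1, if_true, dif_pos] at h
      have := congrArg Fin.val h
      simp at this
    · have := a.isLt; omega
  · simp only [he, if_false] at h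
    have := congrArg Fin.val h
    simp only at this
    omega

theorem sw_parity (d : ℕ) (a : Fin d) (h : sw d a ≠ a) :
    ((sw d a).val % 2 = 0 ↔ ¬ a.val % 2 = 0) := by
  by_cases he : a.val % 2 = 0
  · by_cases h1 : a.val + 1 < d
    · have e : sw d a = ⟨a.val + 1, h1⟩ := by unfold sw; rw [if_pos he, dif_pos h1]
      rw [e]
      simp only
      omega
    · have e : sw d a = a := by unfold sw; rw [if_pos he, dif_neg h1]
      exact absurd e h
  · have e : (sw d a).val = a.val - 1 := by unfold sw; rw [if_neg he]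
    rw [e]
    omega

section
variable (F : Type u) [Field F]

/-- The sign function. -/
def sg (d : ℕ) (a : Fin d) : F :=
  if sw d a = a then 0 else if a.val % 2 = 0 then 1 else -1

theorem sg_sw (d : ℕ) (a : Fin d) : sg F d (sw d a) = - sg F d a := by
  unfold sg
  by_cases h : sw d a = a
  · simp [h]
  · have h' : sw d (sw d a) ≠ sw d a := by rw [sw_sw]; exact fun h2 => h h2.symm
    have hp := sw_parity d a h
    simp only [h, h', if_false]
    by_cases he : a.val % 2 = 0
    · have : ¬ (sw d a).val % 2 = 0 := fun h3 => (hp.mp h3) he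
      simp [he, this]
    · have : (sw d a).val % 2 = 0 := hp.mpr he
      simp [he, this]

/-- The Siegel-type matrix. -/
def xMat (d : ℕ) : Matrix (Fin d ⊕ Fin d) (Fin d ⊕ Fin d) F :=
  Matrix.fromBlocks 1 (Matrix.of fun a b => if b = sw d a then sg F d a else 0) 0 1

/-- Its nilpotent part. -/
def nMat (d : ℕ) : Matrix (Fin d ⊕ Fin d) (Fin d ⊕ Fin d) F :=
  Matrix.fromBlocks 0 (Matrix.of fun a b => if b = sw d a then sg F d a else 0) 0 0

theorem xMat_eq (d : ℕ) : xMat F d = 1 + nMat F d := by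
  unfold xMat nMat
  rw [← Matrix.fromBlocks_one, Matrix.fromBlocks_add]
  simp

theorem nMat_sq (d : ℕ) : nMat F d * nMat F d = 0 := by
  unfold nMat
  rw [Matrix.fromBlocks_multiply]
  simp

theorem xMat_mulVec_inl (d : ℕ) (w : Fin d ⊕ Fin d → F) (a : Fin d) :
    (xMat F d *ᵥ w) (Sum.inl a) = w (Sum.inl a) + sg F d a * w (Sum.inr (sw d a)) := by
  simp [xMat, Matrix.mulVec, dotProduct, Fintype.sum_sum_type, Matrix.one_apply]

theorem xMat_mulVec_inr (d : ℕ) (w : Fin d ⊕ Fin d → F) (b : Fin d) :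
    (xMat F d *ᵥ w) (Sum.inr b) = w (Sum.inr b) := by
  simp [xMat, Matrix.mulVec, dotProduct, Fintype.sum_sum_type, Matrix.one_apply]

theorem xMat_isom (d : ℕ) (w : Fin d ⊕ Fin d → F) :
    Cfsg.quadFormPlus d F (xMat F d *ᵥ w) = Cfsg.quadFormPlus d F w := by
  unfold Cfsg.quadFormPlus
  simp only [xMat_mulVec_inl, xMat_mulVec_inr, add_mul, Finset.sum_add_distrib]
  have h0 : ∑ a : Fin d, sg F d a * w (Sum.inr (sw d a)) * w (Sum.inr a) = 0 := by
    apply Finset.sum_involution (fun a _ => sw d a)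
    · intro a _
      rw [sg_sw, sw_sw]
      ring
    · intro a _ hne heq
      apply hne
      have : sg F d a = 0 := by unfold sg; simp [heq]
      rw [this]; ring
    · intro a _; exact Finset.mem_univ _
    · intro a _; exact sw_sw d a
  rw [h0, add_zero]

theorem xMat_pow (d : ℕ) (k : ℕ) : xMat F d ^ k = 1 + (k : F) • nMat F d := by
  induction k with
  | zero => simp
  | succ k ih =>
    rw [pow_succ, ih, xMat_eq]
    have h := nMat_sq F d
    simp only [add_mul, mul_add, Matrix.smul_mul, h, mul_one, one_mul, smul_zero, add_zero,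
      Nat.cast_add, Nat.cast_one, add_smul, one_smul]
    abel

end

section
variable (F : Type u) [Field F]

theorem xMat_mul_inv (d : ℕ) : xMat F d * (1 - nMat F d) = 1 := by
  have h := nMat_sq F d
  rw [xMat_eq, add_mul, mul_sub, mul_sub, h]
  simp

theorem xMat_inv_mul (d : ℕ) : (1 - nMat F d) * xMat F d = 1 := by
  have h := nMat_sq F d
  rw [xMat_eq, mul_add, sub_mul, sub_mul, h]
  simp

/-- The element as a unit. -/
def xGL (d : ℕ) : GL (Fin d ⊕ Fin d) F :=
  ⟨xMat F d, 1 - nMat F d, xMat_mul_inv F d, xMat_inv_mul F d⟩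

theorem xGL_mem (d : ℕ) : xGL F d ∈ Cfsg.isometryGroup F (Cfsg.quadFormPlus d F) :=
  fun u _ => xMat_isom F d u

theorem sg_ne_zero_iff (d : ℕ) (a : Fin d) : sg F d a ≠ 0 ↔ sw d a ≠ a := by
  unfold sg
  by_cases h : sw d a = a
  · simp [h]
  · by_cases he : a.val % 2 = 0 <;> simp [h, he]

theorem xMat_not_scalar (d : ℕ) (hd : 2 ≤ d) (z : F) :
    xMat F d ≠ z • (1 : Matrix (Fin d ⊕ Fin d) (Fin d ⊕ Fin d) F) := by
  intro h
  have h1 := congrFun (congrFun h (Sum.inl ⟨0, by omega⟩)) (Sum.inr ⟨1, by omega⟩)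
  have hsw : sw d ⟨0, by omega⟩ = ⟨1, by omega⟩ := by
    unfold sw
    simp only [Nat.zero_mod, if_true, zero_add]
    rw [dif_pos (by omega)]
  have hsg : sg F d ⟨0, by omega⟩ = 1 := by
    unfold sg
    rw [hsw]
    simp
  simp only [xMat, Matrix.fromBlocks_apply₁₂, Matrix.of_apply, hsw, if_true, hsg,
    Matrix.smul_apply, smul_eq_mul] at h1
  rw [Matrix.one_apply_ne (by simp), mul_zero] at h1
  exact one_ne_zero h1

/-- The permutation `inl a ↔ inr (sw a)`. -/
def tauFun (d : ℕ) : Fin d ⊕ Fin d → Fin d ⊕ Fin d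
  | Sum.inl a => Sum.inr (sw d a)
  | Sum.inr b => Sum.inl (sw d b)

theorem tauFun_inv (d : ℕ) : Function.Involutive (tauFun d) := by
  rintro (a | b) <;> simp [tauFun, sw_sw]

theorem nMat_eq (d : ℕ) : nMat F d =
    Matrix.diagonal (Sum.elim (sg F d) 0) * ((tauFun_inv d).toPerm.permMatrix F) := by
  ext k l
  rw [Matrix.diagonal_mul]
  rcases k with a | a <;> rcases l with b | b <;>
    simp [nMat, Equiv.Perm.permMatrix, PEquiv.toMatrix_apply, tauFun, eq_comm]

theorem nMat_rank (d : ℕ) : (nMat F d).rank =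
    (Finset.univ.filter (fun a : Fin d => sw d a ≠ a)).card := by
  classical
  rw [nMat_eq, Matrix.rank_mul_eq_left_of_isUnit_det, Matrix.rank_diagonal, Fintype.card_subtype]
  · have : (Finset.univ.filter (fun k : Fin d ⊕ Fin d => Sum.elim (sg F d) 0 k ≠ 0)) =
        (Finset.univ.filter (fun a : Fin d => sw d a ≠ a)).map
          ⟨Sum.inl, Sum.inl_injective⟩ := by
      ext k
      rcases k with a | b
      · simp [sg_ne_zero_iff]
      · simp
    rw [this, Finset.card_map]
  · rw [Matrix.det_permutation]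
    rcases Int.units_eq_one_or (Equiv.Perm.sign (tauFun_inv d).toPerm) with h | h <;> simp [h]

theorem sw_inv (d : ℕ) : Function.Involutive (sw d) := sw_sw d

theorem card_moved_even (d : ℕ) :
    Even (Finset.univ.filter (fun a : Fin d => sw d a ≠ a)).card := by
  have h := Equiv.Perm.two_dvd_card_support (σ := (sw_inv d).toPerm) (by
    ext a
    simp [sq, sw_sw])
  have e : (sw_inv d).toPerm.support = Finset.univ.filter (fun a : Fin d => sw d a ≠ a) := by
    ext a
    simp [Equiv.Perm.mem_support]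
  rw [e] at h
  exact even_iff_two_dvd.mpr h

theorem card_moved_ge (d : ℕ) :
    d ≤ (Finset.univ.filter (fun a : Fin d => sw d a ≠ a)).card + 1 := by
  have h := Finset.card_filter_add_card_filter_not (s := (Finset.univ : Finset (Fin d)))
    (fun a : Fin d => sw d a ≠ a)
  rw [Finset.card_univ, Fintype.card_fin] at h
  have h1 : (Finset.univ.filter (fun a : Fin d => ¬ sw d a ≠ a)).card ≤ 1 := by
    rw [Finset.card_le_one]
    intro a ha b hb
    simp only [Finset.mem_filter, Finset.mem_univ, true_and, not_not] at ha hb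
    have h1 := sw_fixed d a ha
    have h2 := sw_fixed d b hb
    apply Fin.ext
    omega
  omega

theorem toLin_sub_one (d : ℕ) :
    Matrix.toLin' (xMat F d) - 1 = Matrix.toLin' (nMat F d) := by
  rw [xMat_eq, map_add, Matrix.toLin'_one]
  ext v
  simp

theorem finrank_ker_le (d : ℕ) :
    Module.finrank F (LinearMap.ker (Matrix.toLin' (nMat F d))) ≤ d + 1 := by
  have h := LinearMap.finrank_range_add_finrank_ker (Matrix.toLin' (nMat F d))
  rw [Module.finrank_fintype_fun_eq_card, Fintype.card_sum, Fintype.card_fin] at h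
  have hr : Module.finrank F (LinearMap.range (Matrix.toLin' (nMat F d))) = (nMat F d).rank := by
    rw [Matrix.rank, Matrix.toLin'_apply']
  rw [hr, nMat_rank] at h
  have := card_moved_ge d
  omega

end

section
variable {F : Type u} [Field F]

theorem exists_sub_finrank {V : Type u} [AddCommGroup V] [Module F V] [FiniteDimensional F V]
    (U₀ : Submodule F V) (t : ℕ) (ht : t ≤ Module.finrank F U₀) :
    ∃ U : Submodule F V, U ≤ U₀ ∧ Module.finrank F U = t := by
  let b := Module.finBasis F U₀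
  let g : Fin t → V := fun j => (b (Fin.castLE ht j) : V)
  have hli : LinearIndependent F g := by
    have h1 : LinearIndependent F (fun j : Fin t => b (Fin.castLE ht j)) :=
      b.linearIndependent.comp _ (Fin.castLE_injective ht)
    exact h1.map' U₀.subtype (Submodule.ker_subtype U₀)
  refine ⟨Submodule.span F (Set.range g), ?_, ?_⟩
  · rw [Submodule.span_le]
    rintro _ ⟨j, rfl⟩
    exact (b (Fin.castLE ht j)).2
  · rw [finrank_span_eq_card hli, Fintype.card_fin]

/-- The totally singular subspace `{y = 0}`. -/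
def e1Sp (F : Type u) [Field F] (d : ℕ) : Submodule F (Fin d ⊕ Fin d → F) :=
  LinearMap.ker (LinearMap.funLeft F F (Sum.inr : Fin d → Fin d ⊕ Fin d))

theorem mem_e1Sp (d : ℕ) (w : Fin d ⊕ Fin d → F) : w ∈ e1Sp F d ↔ ∀ b, w (Sum.inr b) = 0 := by
  unfold e1Sp
  rw [LinearMap.mem_ker]
  constructor
  · intro h b
    exact congrFun h b
  · intro h
    funext b
    exact h b

theorem finrank_e1Sp (d : ℕ) : Module.finrank F (e1Sp F d) = d := by
  have h := LinearMap.finrank_range_add_finrank_ker
    (LinearMap.funLeft F F (Sum.inr : Fin d → Fin d ⊕ Fin d))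
  rw [Module.finrank_fintype_fun_eq_card, Fintype.card_sum, Fintype.card_fin,
    LinearMap.range_eq_top.mpr (LinearMap.funLeft_surjective_of_injective F F _
      Sum.inr_injective), finrank_top, Module.finrank_fintype_fun_eq_card, Fintype.card_fin] at h
  unfold e1Sp
  omega

theorem nMat_mulVec_inr (d : ℕ) (w : Fin d ⊕ Fin d → F) (b : Fin d) :
    (nMat F d *ᵥ w) (Sum.inr b) = 0 := by
  simp [nMat, Matrix.mulVec, dotProduct, Fintype.sum_sum_type]

theorem nMat_mulVec_inl (d : ℕ) (w : Fin d ⊕ Fin d → F) (a : Fin d) :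
    (nMat F d *ᵥ w) (Sum.inl a) = sg F d a * w (Sum.inr (sw d a)) := by
  simp [nMat, Matrix.mulVec, dotProduct, Fintype.sum_sum_type]

theorem plus_of_inv (d m : ℕ) (hm : Even m) (W : Submodule F (Fin d ⊕ Fin d → F))
    (hW : Module.finrank F W = m) (hinv : W.map (Matrix.toLin' (xMat F d)) ≤ W) :
    Cfsg.Geo.IsPlusTypeOn (Cfsg.quadFormPlus d F) W := by
  set g := Matrix.toLin' (nMat F d) with hg
  have hgW : W.map g ≤ W ⊓ e1Sp F d := by
    rintro _ ⟨w, hw, rfl⟩
    have hw : w ∈ W := hw
    refine Submodule.mem_inf.mpr ⟨?_, ?_⟩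
    · have h1 : Matrix.toLin' (xMat F d) w ∈ W := hinv ⟨w, hw, rfl⟩
      have h2 : g w = Matrix.toLin' (xMat F d) w - w := by
        rw [hg, ← toLin_sub_one]; simp
      rw [h2]
      exact W.sub_mem h1 hw
    · rw [mem_e1Sp]
      intro b
      rw [hg, Matrix.toLin'_apply]
      exact nMat_mulVec_inr d w b
  have he1 : e1Sp F d ≤ LinearMap.ker g := by
    intro w hw
    rw [mem_e1Sp] at hw
    rw [LinearMap.mem_ker, hg, Matrix.toLin'_apply]
    funext k
    rcases k with a | b
    · rw [nMat_mulVec_inl, hw, mul_zero]; rfl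
    · rw [nMat_mulVec_inr]; rfl
  have hrn := LinearMap.finrank_range_add_finrank_ker (g.domRestrict W)
  rw [LinearMap.range_domRestrict, LinearMap.ker_domRestrict,
    ← Submodule.finrank_map_subtype_eq W, Submodule.map_comap_subtype, hW] at hrn
  have h1 : Module.finrank F (W.map g) ≤ Module.finrank F ↥(W ⊓ e1Sp F d) :=
    Submodule.finrank_mono hgW
  have h2 := Submodule.finrank_sup_add_finrank_inf_eq (W ⊓ LinearMap.ker g) (e1Sp F d)
  have h3 : (W ⊓ LinearMap.ker g) ⊓ e1Sp F d = W ⊓ e1Sp F d := by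
    rw [inf_assoc, inf_eq_right.mpr he1]
  have h4 : Module.finrank F ↥((W ⊓ LinearMap.ker g) ⊔ e1Sp F d) ≤ d + 1 :=
    le_trans (Submodule.finrank_mono (sup_le inf_le_right he1)) (finrank_ker_le F d)
  rw [h3, finrank_e1Sp] at h2
  obtain ⟨t, ht⟩ := hm
  obtain ⟨U, hU, hUt⟩ := exists_sub_finrank (W ⊓ e1Sp F d) t (by omega)
  refine ⟨U, le_trans hU inf_le_left, ?_, by rw [hUt, hW]; omega⟩
  intro w hw
  have hw1 := (mem_e1Sp d w).mp (hU hw).2
  unfold Cfsg.quadFormPlus
  apply Finset.sum_eq_zero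
  intro a _
  rw [hw1, mul_zero]

end

/-- [RP] from [PLUSQE]. -/
theorem pkgRP_of (hPQ : PkgPlusQE.{u}) : PkgRP.{u} := by
  intro F _ _ p _ _ d m hd hme
  have hp : p.Prime := Fact.out
  have hpow : xGL F d ^ p = 1 := by
    apply Units.ext
    rw [Units.val_pow_eq_pow_val]
    show xMat F d ^ p = 1
    rw [xMat_pow, CharP.cast_eq_zero F p, zero_smul, add_zero]
  have hns : ∀ z : F, ((xGL F d : GL (Fin d ⊕ Fin d) F) : Matrix (Fin d ⊕ Fin d) (Fin d ⊕ Fin d) F) ≠
      z • (1 : Matrix (Fin d ⊕ Fin d) (Fin d ⊕ Fin d) F) := fun z => xMat_not_scalar F d (by omega) z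
  refine ⟨xGL F d, ?_, hpow, hns, ?_⟩
  · obtain ⟨hQnd, -⟩ := hPQ F d
    have hcardι : Fintype.card (Fin d ⊕ Fin d) ≠ 4 := by
      rw [Fintype.card_sum, Fintype.card_fin]; omega
    by_cases h2 : (2 : F) = 0
    · obtain ⟨Q', hQ'eq, hQ'nd⟩ := Cfsg.Agent.Lib.Helper44.exists_quadraticForm_of_geo hQnd
      have hmem := (Cfsg.Agent.Lib.Helper44.mem_omega_iff_even_rank_fun h2
        (Cfsg.quadFormPlus d F) Q' hQ'eq hQ'nd (Or.inr hcardι) ⟨xGL F d, xGL_mem F d⟩).mpr (by
          show Even ((xMat F d) - 1).rank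
          have e : xMat F d - 1 = nMat F d := by rw [xMat_eq]; simp
          rw [e, nMat_rank]
          exact card_moved_even d)
      exact (Cfsg.Agent.Lib.Helper44.coe_mem_omegaGL_iff ⟨xGL F d, xGL_mem F d⟩).mpr hmem
    · apply pkgOddOmegaE F _ _ hQnd (fun h => absurd h h2) (xGL F d) (xGL_mem F d)
      have hne : xGL F d ≠ 1 := by
        intro h
        apply hns 1
        rw [h, one_smul]; rfl
      rw [orderOf_eq_prime hpow hne]
      apply hp.odd_of_ne_two
      intro hp2
      apply h2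
      have := CharP.cast_eq_zero F p
      rw [hp2] at this
      exact_mod_cast this
  · intro W hWm hinv
    exact plus_of_inv d m hme W hWm hinv

end Cfsg.Agent.Lib.Helper44.OElp
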