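-- Team project OELP (S5988): instantiation of the packages (helper44).
import Mathlib
import Cfsg.Agent.Lib.Helper44.OElp.Asm
import Cfsg.Agent.Lib.Helper44.OElp.OddOmega
import Cfsg.Agent.Lib.Helper44.OElp.RP
import Cfsg.Agent.Lib.Helper44.OElp.ExistP
import Cfsg.Agent.Lib.Helper25.OElp.PlusQE
import Cfsg.Agent.Lib.Helper25.OElp.SplitE
import Cfsg.Agent.Lib.Helper25.OElp.DivE
import Cfsg.Agent.Lib.Helper25.OElp.SubE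
import Cfsg.Agent.Lib.Helper25.OElp.CntWittE
import Cfsg.Agent.Lib.Helper26.OElp.Red
import Cfsg.Agent.Lib.Helper26.OElp.FixE
import Cfsg.Agent.Lib.Helper26.OElp.CongE
import Cfsg.Agent.Lib.Helper26.OElp.CntFixE
import Cfsg.Agent.Lib.Helper26.OElp.CntCauchyE
import Cfsg.Agent.Lib.Helper26.OElp.CntInE
import Cfsg.Agent.Lib.Helper1.OElp.JB
import Cfsg.Agent.Lib.Helper1.OElp.DerE
import Cfsg.Agent.Lib.Helper1.OElp.SumE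
import Cfsg.Agent.Lib.Helper6.OElp.Cnt
import Cfsg.Agent.Lib.Helper15.OElp.NumFix
import Cfsg.Agent.Lib.Helper15.OElp.NumDer
import Cfsg.Agent.Lib.Helper52.OElp.R2Final
import Cfsg.Agent.Lib.Helper59.OElp.BlkE
import Cfsg.Agent.Lib.Helper23.PHyp.GeomE
import Cfsg.Agent.Lib.Helper87.OHyp.Perp

set_option autoImplicit false
open scoped MatrixGroups
open Matrix

namespace Cfsg.Agent.Lib.Helper44.OElp

open Cfsg.Agent.Lib.Helper23.OHyp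

universe u

theorem pkgDivE : PkgDivE.{u} :=
  Cfsg.Agent.Lib.Helper25.OElp.pkgDivE_of Cfsg.Agent.Lib.Helper59.OElp.pkgBlkE
    Cfsg.Agent.Lib.Helper87.OHyp.pkgPerp Cfsg.Agent.Lib.Helper1.OElp.pkgSumE

theorem pkgSubE : PkgSubE.{u} :=
  Cfsg.Agent.Lib.Helper25.OElp.pkgSubE_of Cfsg.Agent.Lib.Helper59.OElp.pkgBlkE
    Cfsg.Agent.Lib.Helper87.OHyp.pkgPerp Cfsg.Agent.Lib.Helper1.OElp.pkgSumE

theorem pkgRP : PkgRP.{u} := pkgRP_of Cfsg.Agent.Lib.Helper25.OElp.pkgPlusQE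

theorem pkgRed : PkgRed.{u} :=
  Cfsg.Agent.Lib.Helper26.OElp.pkgRed_of pkgOddOmegaE Cfsg.Agent.Lib.Helper25.OElp.pkgPlusQE

theorem pkgJB : PkgJB.{u} :=
  Cfsg.Agent.Lib.Helper1.OElp.pkgJB_of Cfsg.Agent.Lib.Helper25.OElp.pkgSplitE pkgDivE

theorem pkgDerE : PkgDerE.{u} :=
  Cfsg.Agent.Lib.Helper1.OElp.pkgDerE_of Cfsg.Agent.Lib.Helper25.OElp.pkgSplitE pkgDivE
    Cfsg.Agent.Lib.Helper1.OElp.pkgSumE

theorem pkgFixE : PkgFixE.{u} :=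
  Cfsg.Agent.Lib.Helper26.OElp.pkgFixE_of Cfsg.Agent.Lib.Helper25.OElp.pkgSplitE pkgDivE pkgSubE
    Cfsg.Agent.Lib.Helper1.OElp.pkgSumE Cfsg.Agent.Lib.Helper23.PHyp.pkgGeomE

theorem pkgCntFixE : PkgCntFixE.{u} :=
  Cfsg.Agent.Lib.Helper26.OElp.pkgCntFixE_of Cfsg.Agent.Lib.Helper25.OElp.pkgSplitE pkgDivE

theorem pkgCntCauchyE : PkgCntCauchyE.{u} :=
  Cfsg.Agent.Lib.Helper26.OElp.pkgCntCauchyE_of Cfsg.Agent.Lib.Helper25.OElp.pkgSplitE pkgDivE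

theorem pkgCnt2 : PkgCnt2.{u} :=
  Cfsg.Agent.Lib.Helper6.OElp.pkgCnt2_of Cfsg.Agent.Lib.Helper25.OElp.pkgPlusQE pkgExistP
    Cfsg.Agent.Lib.Helper26.OElp.pkgCongE pkgCntFixE Cfsg.Agent.Lib.Helper25.OElp.pkgSplitE
    pkgDivE Cfsg.Agent.Lib.Helper1.OElp.pkgSumE

theorem pkgCnt1_of_ellIso (hEll : PkgEllIsoE.{u}) : PkgCnt1.{u} :=
  Cfsg.Agent.Lib.Helper6.OElp.pkgCnt1_of Cfsg.Agent.Lib.Helper25.OElp.pkgPlusQE pkgExistP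
    Cfsg.Agent.Lib.Helper26.OElp.pkgCongE pkgCntFixE
    (Cfsg.Agent.Lib.Helper26.OElp.pkgCntInE_of Cfsg.Agent.Lib.Helper23.PHyp.pkgGeomE
      Cfsg.Agent.Lib.Helper25.OElp.pkgSplitE
      (Cfsg.Agent.Lib.Helper25.OElp.pkgCntWittE_of Cfsg.Agent.Lib.Helper25.OElp.pkgSplitE hEll)
      pkgCntCauchyE)

theorem pkgROdd_of_ellIso (hEll : PkgEllIsoE.{u}) : PkgROdd.{u} :=
  pkgROdd_of pkgRed Cfsg.Agent.Lib.Helper25.OElp.pkgPlusQE pkgJB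
    Cfsg.Agent.Lib.Helper15.OElp.pkgNumFix Cfsg.Agent.Lib.Helper15.OElp.pkgNumDer
    pkgFixE pkgDerE pkgExistP (pkgCnt1_of_ellIso hEll) pkgCnt2

end Cfsg.Agent.Lib.Helper44.OElp
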